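import Cfsg.Agent.FusResidual.Closed
import Cfsg.Agent.FusMinimal.CentralizerSystem
import Cfsg.Agent.FusMinimal.Inner
import Cfsg.Agent.FusAut.PPower
import Cfsg.Agent.Fus.PPrimeExist.Normal
import Cfsg.Agent.Fus.PPowerExist.Normal
import Cfsg.Agent.Eq.Def_FusionComponents

/-!
Constrained structure with `p`-solvable automizer lifts from the residual subsystems.
-/

set_option autoImplicit false

namespace CfsgLib.FusResidual

open Cfsg Cfsg.FusionSystem CfsgLib.Fus CfsgLib.Fusion.Alperin CfsgLib.Constrained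

variable {Ω : Type*} [Group Ω] {S : Subgroup Ω} [Finite S] {p : ℕ} [Fact p.Prime]
  {F : Cfsg.FusionSystem S}

omit [Fact p.Prime] in
/-- Conjugates of automorphisms of an invariant subsystem. -/
theorem autGroup_core_conj {T : Subgroup Ω}
    {D : Cfsg.FusionSystem T} (hinv : D.IsInvariantIn F)
    {c : MulAut D.core} (hc : c ∈ F.autGroup D.core) {α : MulAut D.core}
    (hα : α ∈ D.autGroup D.core) : c * α * c⁻¹ ∈ D.autGroup D.core := by
  have hTS : T ≤ S := hinv.2.1.1
  have : Finite T := finite_of_le hTS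
  have hcn := isNormal_core D
  have hR := hcn.1
  obtain ⟨a, ha, φ₀, hφ₀, he⟩ := hinv.2.2.2 _ hR _ ((mem_autGroup_iff F (hR.trans hTS)).1 hc)
  have hmem : ∀ x : D.core, φ₀ x ∈ D.core := fun x => map_mem_of_isNormal hcn hφ₀ x.2
  have hr : φ₀.range = D.core := by
    have : Finite D.core := finite_of_le hR
    refine Subgroup.eq_of_le_of_card_ge ?_ (isConj_card (isConj_of_hom D hφ₀)).le
    rintro _ ⟨x, rfl⟩; exact hmem x
  set c₀ : MulAut D.core := isoOf hφ₀ hr with hc₀
  have hc₀D : c₀ ∈ D.autGroup D.core := isoOf_mem_autGroup hφ₀ hr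
  have hβ : c₀ * α * c₀⁻¹ ∈ D.autGroup D.core := mul_mem (mul_mem hc₀D hα) (inv_mem hc₀D)
  obtain ⟨χ, hχ, hχe⟩ := transport_of_strong hTS (strong_of_invariant hTS hinv) ha
    ((mem_autGroup_iff D hR).1 hβ)
  have hcc : ∀ x : D.core, ((c x : D.core) : Ω) = autFun a ((c₀ x : D.core) : Ω) := fun x => by
    rw [autFun_apply a (hR (c₀ x).2)]
    exact he x (hom_mem D hφ₀ x)
  have himg : D.core ≤ autImg a D.core := fun y hy =>
    (mem_autImg hR).2 ⟨(c₀ (c⁻¹ ⟨y, hy⟩) : D.core), Subtype.coe_prop _, by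
      rw [← hcc, MulAut.inv_def, MulEquiv.apply_symm_apply]⟩
  refine mem_autGroup_of_apply D (restrict_mem D hχ himg) fun x => ?_
  have h1 : (x : Ω) = autFun a ((c₀ (c⁻¹ x) : D.core) : Ω) := by
    rw [← hcc, MulAut.inv_def, MulEquiv.apply_symm_apply]
  show ((c (α (c⁻¹ x)) : D.core) : Ω) = χ (Subgroup.inclusion himg x)
  have e : Subgroup.inclusion himg x = ⟨autFun a ((c₀ (c⁻¹ x) : D.core) : Ω),
      autFun_mem_autImg a hR (Subtype.coe_prop _)⟩ := Subtype.ext h1
  rw [e, hχe (c₀ (c⁻¹ x)) _, hcc]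
  show _ = autFun a ((((c₀ * α * c₀⁻¹) (c₀ (c⁻¹ x))) : D.core) : Ω)
  simp [MulAut.inv_def]

omit [Fact p.Prime] in
theorem normal_autGroup_core {T : Subgroup Ω} {D : Cfsg.FusionSystem T}
    (hinv : D.IsInvariantIn F) :
    ((D.autGroup D.core).subgroupOf (F.autGroup D.core)).Normal :=
  ⟨fun _ hn g => autGroup_core_conj hinv g.2 hn⟩

/-- Lifting through a subsystem of index prime to `p`. -/
theorem good_of_pPrimeResidual (hS : IsPGroup p S) (hF : F.IsSaturated p)
    {E : Cfsg.FusionSystem S} (hres : F.IsPPrimeResidual p E) (h : Good p E) : Good p F := by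
  have hinvF : F.IsInvariantIn F := ⟨fun P φ h => h, ⟨le_rfl, fun R _ φ hφ x => hom_mem F hφ x⟩,
    fun P hP φ hφ a ha => ?_, fun P hP φ hφ => ⟨1, one_mem _, φ, hφ, fun x hx => rfl⟩⟩
  · have hinv : E.IsInvariantIn F :=
      (CfsgLib.Fus.PPrimeExist.isNormalIn_residual hS ⟨hF, hF, hinvF⟩ hres).1.2.2
    have hEsat := hres.1
    have hn := isNormal_core_of_invariant hS hF hEsat hinv
    have hN := normal_autGroup_core (F := F) hinv
    refine good_of_normal hS hF hn h.1 ?_
    have := finite_autGroup (F := F) hn.1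
    have hle := autGroup_mono hres.2.1.1 E.core
    refine isPSolvable_of_extension _
      (IsPSolvable.of_mulEquiv h.2 (Subgroup.subgroupOfEquivOfLe hle).symm) ?_
    refine isPSolvable_of_not_dvd fun hd => ?_
    obtain ⟨x, hx⟩ := exists_prime_orderOf_dvd_card' p hd
    obtain ⟨g, rfl⟩ := QuotientGroup.mk'_surjective _ x
    obtain ⟨a, t, ht, hg⟩ := Nat.exists_eq_pow_mul_and_not_dvd (orderOf_pos g).ne' p
      (Fact.out : p.Prime).ne_one
    -- the `p`-part of `g` lies in the subgroup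
    have h1 : g ^ t ∈ (E.autGroup E.core).subgroupOf (F.autGroup E.core) := by
      refine hres.2.1.2 E.core hn.1 ⟨g ^ t, Subgroup.subset_closure ⟨a, ?_⟩, rfl⟩
      rw [orderOf_pow' g (fun h => ht (by rw [h]; exact dvd_zero p)), hg, Nat.gcd_mul_left_left,
        Nat.mul_div_cancel _ (Nat.pos_of_ne_zero fun h => ht (by rw [h]; exact dvd_zero p))]
    rw [← QuotientGroup.eq_one_iff] at h1
    have h2 : orderOf (QuotientGroup.mk' ((E.autGroup E.core).subgroupOf (F.autGroup E.core)) g) ∣ t := orderOf_dvd_of_pow_eq_one (by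
      rw [← map_pow]; exact h1)
    rw [hx] at h2
    exact ht h2
  · obtain ⟨ψ, hψ, -, hl, hr⟩ := exists_inv F ((mem_autGroup_iff F le_rfl).1 ha) (range_subtype_comp a)
    have hle : (P.subgroupOf S).map (S.subtype.comp a.toMonoidHom) ≤ S := by
      rintro _ ⟨y, -, rfl⟩; exact (a y).2
    have hψP : ∀ y : ↥((P.subgroupOf S).map (S.subtype.comp a.toMonoidHom)),
        ψ (Subgroup.inclusion hle y) ∈ P := by
      rintro ⟨_, z, hz, rfl⟩
      show ψ ⟨((a z : S) : Ω), _⟩ ∈ P
      rw [show ψ ⟨((a z : S) : Ω), _⟩ = (z : Ω) from hl z (a z).2]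
      exact hz
    refine ⟨_, F.comp_mem (F.comp_mem (restrict_mem F hψ hle) hφ hψP)
      ((mem_autGroup_iff F le_rfl).1 ha) (fun y => hom_mem F hφ _), fun x hφx hax => ?_⟩
    show ((a ⟨φ ⟨ψ ⟨_, _⟩, _⟩, _⟩ : S) : Ω) = _
    congr 2
    exact Subtype.ext (congrArg φ (Subtype.ext (hl ⟨x, hP x.2⟩ (a ⟨x, hP x.2⟩).2)))

/-- Lifting through a subsystem of `p`-power index. -/
theorem good_of_pResidual (hS : IsPGroup p S) (hF : F.IsSaturated p) {T : Subgroup Ω} (hTS : T ≤ S)
    (hTn : (T.subgroupOf S).Normal) (hT : F.hyperfocalSubgroup p ≤ T) {D : Cfsg.FusionSystem T}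
    (hD : D.IsSaturated p) (hidx : D.HasPPowerIndexIn F p) (h : Good p D) : Good p F := by
  have : Finite T := finite_of_le hTS
  have hnorm := CfsgLib.Fus.PPowerExist.isNormalIn_of_pPowerIndex hS hF hTS hTn hT hD hidx
  have hinv := hnorm.1.2.2
  have hTsc := hinv.2.1
  have hRn := isNormal_core_of_invariant hS hF hD hinv
  set R := D.core with hRdef
  have hRT : R ≤ T := core_le D
  have hQ := isNormal_core F
  set Q := F.core with hQdef
  have hRQ : R ≤ Q := le_core hRn
  have hQn := CfsgLib.Fusion.Alperin.le_normalizer_of_stronglyClosed (stronglyClosed_of_isNormal hQ)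
  have hRcore : Q ⊓ T ≤ R := le_core (isNormal_inf hS hTsc hD hidx.1 hQ)
  have hQc : centralizerIn S Q ≤ Q := by
    set X := centralizerIn S Q with hX
    have hXS : X ≤ S := centralizerIn_le Q
    have hXT : ∀ x ∈ X, x ∈ T → x ∈ Q := fun x hx hxT =>
      hRQ (h.1 ⟨hxT, fun r hr => hx.2 r (hRQ hr)⟩)
    have hrec := CfsgLib.FusMinimal.receptive_of_isNormal hS hF hQ
    set C := centralizerSystem F Q hQ.1 with hCdef
    have : Finite X := finite_of_le hXS
    have hCs : C.IsSaturated p := CfsgLib.FusMinimal.centralizerSystem_isSaturated hS hF hrec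
    have hautsP : CfsgLib.FusMinimal.AutsArePGroups p C := by
      intro P hP
      have : Finite P := finite_of_le (hP.trans hXS)
      have := finite_autGroup (F := C) hP
      refine CfsgLib.FusAut.isPGroup_of_prime_order fun σ q hq hqp hσq => ?_
      obtain ⟨hσF, -, -, θ, hθ, hθe, hθQ⟩ := (mem_autGroup_iff C hP).1 σ.2
      have hσF' : (σ : MulAut P) ∈ F.autGroup P :=
        (mem_autGroup_iff F (hP.trans hXS)).2 hσF
      have hcop : (orderOf (σ : MulAut P)).Coprime p := by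
        refine Nat.Coprime.coprime_dvd_left (orderOf_dvd_of_pow_eq_one
          (show (σ : MulAut P) ^ q = 1 by rw [← Subgroup.coe_pow, hσq]; rfl)) ?_
        exact (Nat.coprime_primes hq (Fact.out : p.Prime)).2 hqp
      refine Subtype.ext (MulEquiv.ext fun x => ?_)
      set z : P := x⁻¹ * (σ : MulAut P) x with hz
      have hzQ : (z : Ω) ∈ Q := hXT _ (hP z.2)
        (hT (CfsgLib.FusAut.mem_hyperfocal F (hP.trans hXS) hσF' hcop x))
      have hfix : (σ : MulAut P) z = z := by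
        refine Subtype.ext ((hθe z).symm.trans ?_)
        exact hθQ ⟨z, hzQ⟩
      have hpow : ∀ k : ℕ, ((σ : MulAut P) ^ k) x = x * z ^ k := by
        intro k
        induction k with
        | zero => simp
        | succ k ih =>
          rw [pow_succ', MulAut.mul_apply, ih, map_mul, map_pow, hfix, pow_succ',
            show (σ : MulAut P) x = x * z by rw [hz, mul_inv_cancel_left], mul_assoc]
      have h1 : z ^ q = 1 := by
        have := hpow q
        rw [← Subgroup.coe_pow, hσq] at this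
        exact mul_left_cancel (a := x) (this.symm.trans (mul_one x).symm)
      obtain ⟨m, hm⟩ := IsPGroup.iff_card.1 (hS.to_le (hP.trans hXS))
      have h2 : orderOf z ∣ p ^ m := hm ▸ orderOf_dvd_natCard z
      have h3 : z = 1 := orderOf_eq_one_iff.1 (Nat.Coprime.eq_one_of_dvd
        ((((Nat.coprime_primes hq (Fact.out : p.Prime)).2 hqp).pow_right m).coprime_dvd_left
          (orderOf_dvd_of_pow_eq_one h1)) h2)
      have h4 := hpow 1
      rw [pow_one, pow_one, h3, mul_one] at h4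
      exact h4
    have hinner := CfsgLib.FusMinimal.eq_inner_of_autsP (hS.to_le hXS) hCs hautsP
    refine le_core (isNormal_of_extend hS le_rfl hF hXS fun A g hA hg i hAi x hx => ?_)
    obtain ⟨f, hf, hfe, hfQ⟩ := exists_ext_normal hQ hg
    obtain ⟨φQ, hφQ, eQ⟩ := hf.restrict (le_sup_right : Q ≤ A ⊔ Q)
    have hXN : Q ⊔ X ≤ normalizerIn S Q :=
      sup_le (le_normalizerIn hQ.1) (centralizerIn_le_normalizerIn Q)
    obtain ⟨τ, hτ, hτe⟩ := (hf.restrict (le_sup_right : Q ≤ A ⊔ Q)).exists_ext hfQ hrec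
      (le_sup_left : Q ≤ Q ⊔ X) hXN fun l hl => by
        have hl' : l ∈ extender S Q φQ := sup_le (le_extender F hφQ) centralizerIn_le_extender hl
        obtain ⟨-, hlN, t, ht, htx⟩ := mem_extender_iff.1 hl'
        refine ⟨t, ht, fun y hy => ?_⟩
        have h1 := htx ⟨y, hy⟩ (conj_mem_of_normalizer hlN hy)
        rwa [eQ, eQ] at h1
    have hτQ : τ '' (Q : Set Ω) = Q := (Set.image_congr hτe).trans hfQ
    have hτX : ∀ y ∈ X, τ y ∈ X := fun y hy => ⟨hτ.mem (Subgroup.mem_sup_right hy), fun q hq => by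
      obtain ⟨q₀, hq₀, rfl⟩ := hτQ.symm.subset hq
      rw [← hτ.map_mul (Subgroup.mem_sup_left hq₀) (Subgroup.mem_sup_right hy),
        ← hτ.map_mul (Subgroup.mem_sup_right hy) (Subgroup.mem_sup_left hq₀), hy.2 q₀ hq₀]⟩
    have : Finite (Q ⊔ X : Subgroup Ω) := finite_of_le (sup_le hQ.1 hXS)
    have hτK : ∀ y ∈ Q ⊔ X, τ y ∈ Q ⊔ X := by
      obtain ⟨φ, hφ, e⟩ := id hτ
      intro y hy
      have h1 : φ ⟨y, hy⟩ ∈ Q ⊔ X := by
        refine CfsgLib.Fus.map_mem_sup φ (fun a => ?_) (fun a => ?_) ⟨y, hy⟩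
        · rw [e, Subgroup.coe_inclusion]
          exact hτQ.subset ⟨a, a.2, rfl⟩
        · rw [e, Subgroup.coe_inclusion]
          exact hτX _ a.2
      rwa [e] at h1
    obtain ⟨R', hR', -⟩ := hτ.exists_img le_rfl
    have hR'e : R' = Q ⊔ X := by
      refine Subgroup.eq_of_le_of_card_ge ?_ (hτ.card_img le_rfl hR').ge
      intro y hy
      obtain ⟨w, hw, rfl⟩ := hR'.symm.subset hy
      exact hτK w hw
    rw [hR'e] at hR'
    obtain ⟨τi, hτi, hτil, hτir, hτim⟩ := hτ.exists_inv hR'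
    have hfA : ∀ y ∈ A, f y ∈ X := fun y hy => ⟨hf.mem (Subgroup.mem_sup_left hy), fun q hq => by
      obtain ⟨q₀, hq₀, rfl⟩ := hfQ.symm.subset hq
      rw [← hf.map_mul (Subgroup.mem_sup_right hq₀) (Subgroup.mem_sup_left hy),
        ← hf.map_mul (Subgroup.mem_sup_left hy) (Subgroup.mem_sup_right hq₀), (hA hy).2 q₀ hq₀]⟩
    have hfK : ∀ y ∈ A ⊔ Q, f y ∈ X ⊔ Q := by
      obtain ⟨φ, hφ, e⟩ := id hf
      intro y hy
      have h1 : φ ⟨y, hy⟩ ∈ X ⊔ Q := by
        refine CfsgLib.Fus.map_mem_sup φ (fun a => ?_) (fun a => ?_) ⟨y, hy⟩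
        · rw [e, Subgroup.coe_inclusion]
          exact hfA _ a.2
        · rw [e, Subgroup.coe_inclusion]
          exact hfQ.subset ⟨a, a.2, rfl⟩
      rwa [e] at h1
    have hfK' : ∀ y ∈ A ⊔ Q, f y ∈ Q ⊔ X := fun y hy => sup_comm X Q ▸ hfK y hy
    set k : Ω → Ω := τi ∘ f with hk
    have hkM : Mor F (A ⊔ Q) k := hf.comp hτi hfK'
    have hkQ : ∀ q ∈ Q, k q = q := fun q hq => by
      rw [hk, Function.comp_apply, ← hτe q hq, hτil q (Subgroup.mem_sup_left hq)]
    have hkA : ∀ y ∈ A, k y ∈ X := fun y hy => ⟨hkM.mem (Subgroup.mem_sup_left hy), fun q hq => by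
      rw [← hkQ q hq, ← hkM.map_mul (Subgroup.mem_sup_right hq) (Subgroup.mem_sup_left hy),
        ← hkM.map_mul (Subgroup.mem_sup_left hy) (Subgroup.mem_sup_right hq), (hA hy).2 q hq]⟩
    obtain ⟨φk, hφk, ek⟩ := id hkM
    have hkC : φk.comp (Subgroup.inclusion le_sup_left) ∈ C.Hom A :=
      ⟨restrict_mem F hφk le_sup_left, hA, fun y => by
          show φk _ ∈ _
          rw [ek]; exact hkA _ y.2,
        φk, hφk, fun y => rfl, fun q => (ek _).trans (hkQ q q.2)⟩
    rw [hinner A] at hkC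
    obtain ⟨-, c, hc, hce⟩ := hkC
    have hkx : k x = c * x * c⁻¹ := (ek ⟨x, Subgroup.mem_sup_left hx⟩).symm.trans (hce ⟨x, hx⟩)
    have h2 : g x = τ (k x) := by
      rw [hk, Function.comp_apply, hτir _ (hfK' x (Subgroup.mem_sup_left hx)), hfe x hx]
    have h3 : k x ∈ X.lowerCentralSeries i := by
      rw [hkx]
      exact lcs_mem (mor_conj (F := F) hXS (hXS hc)) le_rfl
        (fun y hy => X.mul_mem (X.mul_mem hc hy) (X.inv_mem hc)) i (hAi hx)
    rw [h2]
    exact lcs_mem hτ le_sup_right hτX i h3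
  refine good_of_normal hS hF hQ hQc ?_
  have := finite_autGroup (F := F) hQ.1
  have hRS : R ≤ S := hRQ.trans hQ.1
  have := finite_autGroup (F := F) hRS
  have : Finite Q := finite_of_le hQ.1
  obtain ⟨r, hr⟩ := exists_resHom hQ.1 hRQ fun a ha x hx =>
    map_mem_of_isNormal hRn ((mem_autGroup_iff F hQ.1).1 ha) (x := x) hx
  have hk : IsPGroup p r.ker := by
    refine CfsgLib.FusAut.isPGroup_of_prime_order fun σ q hq hqp hσq => ?_
    have hσ1 : ((σ : F.autGroup Q) : MulAut Q) ^ q = 1 := by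
      have := congrArg (fun z : r.ker => (((z : F.autGroup Q)) : MulAut Q)) hσq
      simpa using this
    have hco : q.Coprime p := (Nat.coprime_primes hq (Fact.out : p.Prime)).2 hqp
    refine Subtype.ext (Subtype.ext (MulEquiv.ext fun x => ?_))
    set τ : MulAut Q := ((σ : F.autGroup Q) : MulAut Q) with hτ
    set z : Q := x⁻¹ * τ x with hz
    have hzR : (z : Ω) ∈ R := hRcore ⟨z.2, hT (CfsgLib.FusAut.mem_hyperfocal F hQ.1
      (σ : F.autGroup Q).2 (hco.coprime_dvd_left (orderOf_dvd_of_pow_eq_one hσ1)) x)⟩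
    have hfix : τ z = z := by
      apply Subtype.ext
      have h1 := hr (σ : F.autGroup Q) ⟨z, hzR⟩
      rw [MonoidHom.mem_ker.1 σ.2] at h1
      exact h1.symm
    have hpow : ∀ k : ℕ, (τ ^ k) x = x * z ^ k := by
      intro k
      induction k with
      | zero => simp
      | succ k ih =>
        rw [pow_succ', MulAut.mul_apply, ih, map_mul, map_pow, hfix, pow_succ',
          show τ x = x * z by rw [hz, mul_inv_cancel_left], mul_assoc]
    have h1 : z ^ q = 1 := by
      have := hpow q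
      rw [hσ1] at this
      exact mul_left_cancel (a := x) (this.symm.trans (mul_one x).symm)
    obtain ⟨m, hm⟩ := IsPGroup.iff_card.1 (hS.to_le hQ.1)
    have : Finite Q := finite_of_le hQ.1
    have h3 : z = 1 := orderOf_eq_one_iff.1 (Nat.Coprime.eq_one_of_dvd
      ((hco.pow_right m).coprime_dvd_left (orderOf_dvd_of_pow_eq_one h1))
      (hm ▸ orderOf_dvd_natCard z))
    have h4 := hpow 1
    rw [pow_one, pow_one, h3, mul_one] at h4
    exact h4
  refine isPSolvable_of_hom r hk ?_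
  have hN := normal_autGroup_core (F := F) hinv
  refine isPSolvable_of_extension _
    (IsPSolvable.of_mulEquiv h.2 (Subgroup.subgroupOfEquivOfLe (autGroup_mono hidx.1 R)).symm) ?_
  refine isPSolvable_of_isPGroup (CfsgLib.FusAut.isPGroup_of_prime_order fun x q hq hqp hxq => ?_)
  obtain ⟨g, rfl⟩ := QuotientGroup.mk'_surjective _ x
  have hco : q.Coprime p := (Nat.coprime_primes hq (Fact.out : p.Prime)).2 hqp
  obtain ⟨j, hj, hord⟩ := exists_coprime_pow g hco
  have h1 : g ^ j ∈ (D.autGroup R).subgroupOf (F.autGroup R) :=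
    hidx.2.2 R hRT ⟨g ^ j, Subgroup.subset_closure hord, rfl⟩
  rw [← QuotientGroup.eq_one_iff] at h1
  rw [← pow_one (QuotientGroup.mk' ((D.autGroup R).subgroupOf (F.autGroup R)) g),
    ← pow_eq_pow_iff_modEq.2 (hj.of_dvd (orderOf_dvd_of_pow_eq_one hxq)), ← map_pow]
  exact h1

end CfsgLib.FusResidual
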